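import Cfsg.Agent.Lib.Schur.SpStem.Trans
import Cfsg.Agent.Lib.Schur.Local
import Cfsg.Agent.Lib.Schur.PcPerm
import Cfsg.Agent.Lib.Classical.SympCount
import Cfsg.Agent.Lib.Classical.FieldTransfer
import Cfsg.Agent.Lib.Schur.SpStem.Cert.Sp82p2
import Cfsg.Agent.Lib.Schur.SpStem.Cert.Sp82p3
import Cfsg.Agent.Lib.Schur.SpStem.Cert.Sp82p5

/-!
# The stem extensions of `Base82` are trivial: a kernel-checked computation of stable elements
-/

set_option autoImplicit false
set_option maxRecDepth 100000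
set_option linter.unusedSectionVars false
set_option linter.unusedVariables false

namespace Cfsg.Agent.Lib.Schur.SpStem.Base82

open scoped Matrix
open Subgroup Cfsg.Agent.Lib.Schur.Stem Cfsg.Agent.Lib.Schur.Local Cfsg.Agent.Lib.Schur.PcPerm
open _root_.Cfsg.Agent.Lib.PermComp
open Cfsg.Agent.Lib.Schur.SpStem Cfsg.Agent.Lib.Schur.SpStem.Cert

/-- The prime field. -/
abbrev K : Type := ZMod 2

/-- The index set. -/
abbrev Idx : Type := Fin 4 ⊕ Fin 4

/-- The vectors. -/
abbrev V : Type := Idx → K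

/-- The symplectic group. -/
abbrev Sp : Type := ↥(Matrix.symplecticGroup (Fin 4) K)

/-- The number of a vector. -/
def enc (v : V) : ℕ := 1 * (v (.inl 0)).val + 2 * (v (.inl 1)).val + 4 * (v (.inl 2)).val + 8 * (v (.inl 3)).val + 16 * (v (.inr 0)).val + 32 * (v (.inr 1)).val + 64 * (v (.inr 2)).val + 128 * (v (.inr 3)).val

/-- The power of `q` at an index. -/
def pw : Idx → ℕ
  | .inl j => 2 ^ j.val
  | .inr j => 2 ^ (4 + j.val)

/-- The vector of a number. -/
def dec (i : ℕ) : V := fun x => ((i / pw x % 2 : ℕ) : K)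

theorem enc_lt (v : V) : enc v < 256 := by
  have h : ∀ a : K, a.val ≤ 1 := by decide
  have h0 := h (v (.inl 0))
  have h1 := h (v (.inl 1))
  have h2 := h (v (.inl 2))
  have h3 := h (v (.inl 3))
  have h4 := h (v (.inr 0))
  have h5 := h (v (.inr 1))
  have h6 := h (v (.inr 2))
  have h7 := h (v (.inr 3))
  unfold enc
  omega

theorem enc_dec : ∀ i : Fin 256, enc (dec i.1) = i.1 := by
  decide +kernel

theorem card_V : Fintype.card V = 256 := by
  simp [ZMod.card]

/-- The numbering of the vectors. -/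
noncomputable def e : V ≃ Fin 256 :=
  Equiv.ofBijective (fun v => ⟨enc v, enc_lt v⟩)
    ((Fintype.bijective_iff_surjective_and_card _).2
      ⟨fun i => ⟨dec i.1, Fin.ext (enc_dec i)⟩, by rw [card_V]; simp⟩)

theorem e_coe (v : V) : ((e v : Fin 256) : ℕ) = enc v := rfl

theorem dec_enc (v : V) : dec (enc v) = v := by
  have h : e (dec (enc v)) = e v := Fin.ext (by rw [e_coe]; exact enc_dec ⟨enc v, enc_lt v⟩)
  exact e.injective h

/-- The action on the vectors. -/
def rho : Sp →* Equiv.Perm V where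
  toFun A :=
    { toFun := fun v => A.1 *ᵥ v
      invFun := fun v => (A⁻¹).1 *ᵥ v
      left_inv := fun v => by
        show (A⁻¹).1 *ᵥ (A.1 *ᵥ v) = v
        rw [Matrix.mulVec_mulVec]
        have : (A⁻¹).1 * A.1 = 1 := congrArg Subtype.val (inv_mul_cancel A)
        rw [this, Matrix.one_mulVec]
      right_inv := fun v => by
        show A.1 *ᵥ ((A⁻¹).1 *ᵥ v) = v
        rw [Matrix.mulVec_mulVec]
        have : A.1 * (A⁻¹).1 = 1 := congrArg Subtype.val (mul_inv_cancel A)
        rw [this, Matrix.one_mulVec] }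
  map_one' := by
    ext v
    simp
  map_mul' A B := by
    ext v
    simp [Matrix.mulVec_mulVec]

theorem rho_apply (A : Sp) (v : V) : rho A v = A.1 *ᵥ v := rfl

theorem rho_inj : Function.Injective rho := by
  intro A B h
  apply Subtype.ext
  apply Matrix.mulVec_injective
  funext v
  exact congrArg (fun f : Equiv.Perm V => f v) h

/-- The matrix of a code: its columns are the images of the basis vectors. -/
def Mc (c : ℕ) : Matrix Idx Idx K := Matrix.of fun i j => dec (Core.app 8 255 c (pw j)) i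

/-- The check that a code is the action of a symplectic matrix. -/
def checkCode (c : ℕ) : Bool :=
  decide (Mc c * Matrix.J (Fin 4) K * (Mc c)ᵀ = Matrix.J (Fin 4) K) &&
    (List.range 256).all fun i => Nat.beq (Core.app 8 255 c i) (enc (Mc c *ᵥ dec i))

theorem rep_of_check {c : ℕ} (h : checkCode c = true) : ∃ g ∈ rho.range, Core.Rep 8 255 e c g := by
  simp only [checkCode, Bool.and_eq_true, decide_eq_true_eq, List.all_eq_true, List.mem_range] at h
  obtain ⟨h1, h2⟩ := h
  have hmem : Mc c ∈ Matrix.symplecticGroup (Fin 4) K := SymplecticGroup.mem_iff.2 h1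
  refine ⟨rho ⟨Mc c, hmem⟩, ⟨_, rfl⟩, fun a => ?_⟩
  rw [e_coe, e_coe, rho_apply]
  have h3 := Nat.eq_of_beq_eq_true (h2 (enc a) (enc_lt a))
  rw [dec_enc] at h3
  exact h3

/-- The permutation group. -/
noncomputable abbrev G : Subgroup (Equiv.Perm V) := rho.range

theorem card_G : Nat.card G = 47377612800 := by
  have h1 : Nat.card G = Nat.card Sp := (Nat.card_congr (MonoidHom.ofInjective rho_inj).toEquiv).symm
  rw [h1, Cfsg.Agent.Lib.Classical.SympCount.card_symplecticGroup (q := 2) (by simp [Nat.card_eq_fintype_card, ZMod.card]) 4]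
  decide +kernel

theorem mem2 : (Sp82p2.codes ++ Sp82p2.conj).all checkCode = true := by decide +kernel
theorem mem3 : (Sp82p3.codes ++ Sp82p3.conj).all checkCode = true := by decide +kernel
theorem mem5 : (Sp82p5.codes ++ Sp82p5.conj).all checkCode = true := by decide +kernel

theorem mem2' {x : ℕ} (h : x ∈ Sp82p2.codes ++ Sp82p2.conj) : ∃ g ∈ G, Core.Rep 8 255 e x g :=
  rep_of_check (List.all_eq_true.1 mem2 x h)

theorem mem3' {x : ℕ} (h : x ∈ Sp82p3.codes ++ Sp82p3.conj) : ∃ g ∈ G, Core.Rep 8 255 e x g :=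
  rep_of_check (List.all_eq_true.1 mem3 x h)

theorem mem5' {x : ℕ} (h : x ∈ Sp82p5.codes ++ Sp82p5.conj) : ∃ g ∈ G, Core.Rep 8 255 e x g :=
  rep_of_check (List.all_eq_true.1 mem5 x h)

theorem not_sq_dvd {p : ℕ} (hp : p.Prime) (h2 : p ≠ 2) (h3 : p ≠ 3) (h5 : p ≠ 5) : ¬ p ^ 2 ∣ 47377612800 := by
  intro h
  have hc : Nat.Coprime (p ^ 2) (2 ^ 16 * 3 ^ 5 * 5 ^ 2) := by
    apply Nat.Coprime.pow_left
    apply Nat.Coprime.mul_right
    · apply Nat.Coprime.mul_right
      · exact Nat.Coprime.pow_right _ ((Nat.coprime_primes hp Nat.prime_two).2 h2)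
      · exact Nat.Coprime.pow_right _ ((Nat.coprime_primes hp Nat.prime_three).2 h3)
    · exact Nat.Coprime.pow_right _ ((Nat.coprime_primes hp (by norm_num)).2 h5)
  have h4 : p ^ 2 ∣ 119 := by
    have : 47377612800 = (2 ^ 16 * 3 ^ 5 * 5 ^ 2) * 119 := by norm_num
    rw [this] at h
    exact hc.dvd_of_dvd_mul_left h
  have h5' := Nat.le_of_dvd (by norm_num) h4
  have h6 : p ≤ 10 := by nlinarith
  interval_cases p
  all_goals first | omega | (norm_num at hp; done) | (norm_num at h4; done)

universe u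

theorem bound (Γ : Type u) [Group Γ] [Finite Γ] (σ : Γ →* G) (hσ : IsStemExtension σ) :
    Nat.card σ.ker ∣ 1 := by
  refine card_ker_dvd_of_sylow hσ 1 (by norm_num) ?_
  intro p _ P
  by_cases hp2 : p = 2
  · subst hp2
    exact PcLow.card_ker_dvd (n := 256) (w := 8) (mask := 255) (idc := Sp82p2.cidc) (e := e) (p := 2) G
      Sp82p2.C Sp82p2.check_ok Sp82p2.codes Sp82p2.conj Sp82p2.SG Sp82p2.lows Sp82p2.chkq_ok Sp82p2.low_ok
      (fun x hx => mem2' (List.mem_append_left _ hx)) (fun x hx => mem2' (List.mem_append_right _ hx))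
      rfl hσ (m := 722925) (by rw [card_G]; decide +kernel) (by norm_num) P
  by_cases hp3 : p = 3
  · subst hp3
    exact card_ker_dvd (n := 256) (w := 8) (mask := 255) (idc := Sp82p3.cidc) (e := e) (p := 3) G
      Sp82p3.C Sp82p3.check_ok Sp82p3.codes Sp82p3.conj Sp82p3.base Sp82p3.ord Sp82p3.chk_ok
      (fun x hx => mem3' (List.mem_append_left _ hx)) (fun x hx => mem3' (List.mem_append_right _ hx))
      rfl hσ (m := 194969600) (by rw [card_G]; decide +kernel) (by norm_num) P
  by_cases hp5 : p = 5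
  · subst hp5
    exact card_ker_dvd (n := 256) (w := 8) (mask := 255) (idc := Sp82p5.cidc) (e := e) (p := 5) G
      Sp82p5.C Sp82p5.check_ok Sp82p5.codes Sp82p5.conj Sp82p5.base Sp82p5.ord Sp82p5.chk_ok
      (fun x hx => mem5' (List.mem_append_left _ hx)) (fun x hx => mem5' (List.mem_append_right _ hx))
      rfl hσ (m := 1895104512) (by rw [card_G]; decide +kernel) (by norm_num) P
  · refine card_ker_sylow_of_not_sq_dvd hσ ?_ P
    rw [card_G]
    exact not_sq_dvd Fact.out hp2 hp3 hp5


/-- The isomorphism of the symplectic group with the permutation group. -/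
noncomputable def equivSp : Sp ≃* G := MonoidHom.ofInjective rho_inj

/-- The stem extensions are trivial. -/
theorem stem_trivial {F Γ : Type u} [Field F] [Fintype F] [Group Γ] [Finite Γ] (hF : Fintype.card F = 2)
    {σ : Γ →* Matrix.symplecticGroup (Fin 4) F} (hσ : IsStemExtension σ) {z : Γ} (hz : σ z = 1) : z = 1 := by
  let f : F ≃+* K := FiniteField.ringEquivOfCardEq (by rw [hF, ZMod.card])
  let E : Matrix.symplecticGroup (Fin 4) F ≃* G := (spCongr f).trans equivSp
  have hτ := stem_comp hσ E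
  have h1 := bound Γ _ hτ
  have h2 : Nat.card (E.toMonoidHom.comp σ).ker = 1 := Nat.dvd_one.1 h1
  have h3 : Subsingleton (E.toMonoidHom.comp σ).ker := (Nat.card_eq_one_iff_unique.mp h2).1
  have h4 : z ∈ (E.toMonoidHom.comp σ).ker := by
    rw [MonoidHom.mem_ker, MonoidHom.comp_apply, hz, map_one]
  exact congrArg Subtype.val (Subsingleton.elim (⟨z, h4⟩ : (E.toMonoidHom.comp σ).ker) 1)

end Cfsg.Agent.Lib.Schur.SpStem.Base82
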