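import Cfsg.Agent.Lib.Schur.SpStem.Base43
import Cfsg.Agent.Lib.Schur.SpStem.Base82
import Cfsg.Agent.S0269

/-!
# The stem extensions of `Sp_{2m}(F)` are trivial, apart from the exceptions
-/

set_option autoImplicit false

namespace Cfsg.Agent.Lib.Schur.SpStem

open Cfsg Subgroup Matrix

universe u

section

variable {F : Type u} [Field F] [Fintype F]

/-- The case of three elements. -/
theorem stem_trivial_three (hF : Fintype.card F = 3) (m : ℕ) (hm : 2 ≤ m) :
    ∀ (Γ : Type u) [Group Γ] [Finite Γ] (σ : Γ →* Matrix.symplecticGroup (Fin m) F),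
      IsStemExtension σ → ∀ z, σ z = 1 → z = 1 := by
  induction m, hm using Nat.le_induction with
  | base =>
    intro Γ _ _ σ hσ z hz
    exact Base43.stem_trivial hF hσ hz
  | succ n hn ih =>
    intro Γ _ _ σ hσ z hz
    have hp : commutator (Matrix.symplecticGroup (Fin n) F) = ⊤ :=
      Cfsg.Agent.S0269.result n (by
        by_cases h : n = 2
        · exact Or.inr (Or.inl ⟨h, by omega⟩)
        · exact Or.inl (by omega))
    exact stem_step hn ih hp (Or.inl hF) hσ hz

/-- The case of two elements. -/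
theorem stem_trivial_two (hF : Fintype.card F = 2) (m : ℕ) (hm : 4 ≤ m) :
    ∀ (Γ : Type u) [Group Γ] [Finite Γ] (σ : Γ →* Matrix.symplecticGroup (Fin m) F),
      IsStemExtension σ → ∀ z, σ z = 1 → z = 1 := by
  induction m, hm using Nat.le_induction with
  | base =>
    intro Γ _ _ σ hσ z hz
    exact Base82.stem_trivial hF hσ hz
  | succ n hn ih =>
    intro Γ _ _ σ hσ z hz
    have hp : commutator (Matrix.symplecticGroup (Fin n) F) = ⊤ :=
      Cfsg.Agent.S0269.result n (Or.inl (by omega))
    exact stem_step (by omega) ih hp (Or.inr ⟨hF, hn⟩) hσ hz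

/-- The stem extensions of `Sp_{2m}(F)` are trivial. -/
theorem stem_trivial (m : ℕ) (hm : 2 ≤ m) (h2 : m = 2 → 3 ≤ Fintype.card F)
    (hexc : ¬ (m = 3 ∧ Fintype.card F = 2)) :
    ∀ (Γ : Type u) [Group Γ] [Finite Γ] (σ : Γ →* Matrix.symplecticGroup (Fin m) F),
      IsStemExtension σ → ∀ z, σ z = 1 → z = 1 := by
  have h2' : 2 ≤ Fintype.card F := Fintype.one_lt_card
  by_cases h4 : 4 ≤ Fintype.card F
  · intro Γ _ _ σ hσ z hz
    exact stem_trivial_q4 hm h4 hσ hz
  by_cases h3 : Fintype.card F = 3
  · exact stem_trivial_three h3 m hm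
  · have hq : Fintype.card F = 2 := by omega
    have hm4 : 4 ≤ m := by
      by_contra hcon
      have : m = 2 ∨ m = 3 := by omega
      rcases this with rfl | rfl
      · have := h2 rfl
        omega
      · exact hexc ⟨rfl, hq⟩
    exact stem_trivial_two hq m hm4

end

end Cfsg.Agent.Lib.Schur.SpStem
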