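import Cfsg.Agent.Lib.Schur.PcPerm

/-!
# Tail certificates for permutation groups: the order of the `p`-group from a chain of orbits

The group-level check of `PcPerm` lists all the elements of the `p`-group. Here a lower bound of its order comes from
a chain of stabilisers: a list of words, whose tails generate smaller and smaller subgroups fixing points, and words
reaching many images of the next point.
-/

set_option autoImplicit false
set_option linter.unusedSectionVars false
set_option linter.unusedVariables false

namespace Cfsg.Agent.Lib.Schur.SpStem.PcLow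

open Cfsg Subgroup Cfsg.Agent.Lib.Schur.PcCert Cfsg.Agent.Lib.Schur.PcGroup Cfsg.Agent.Lib.Schur.PcMain
  Cfsg.Agent.Lib.Schur.PcPerm
open Cfsg.Agent.Lib.PermComp.Core

/-- The check of one step of the chain. -/
def chkLow (n w mask : ℕ) (L : ℕ → ℕ) (SG : List (List ℕ)) : ℕ → List (ℕ × ℕ × List (List ℕ)) → Bool
  | _, [] => true
  | t, (b, t', orb) :: rest =>
    Nat.blt b n && Nat.ble t t' && ((SG.drop t').all fun u => Nat.beq (applyW w mask L u b) b) &&
      (orb.all fun o => o.all fun i => Nat.ble t i && Nat.blt i SG.length) &&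
      incB (orb.map fun o => applyW w mask L (o.flatMap fun i => SG.getD i []) b) && chkLow n w mask L SG t' rest

/-- The product of the lengths of the orbits. -/
def prodLow : List (ℕ × ℕ × List (List ℕ)) → ℕ
  | [] => 1
  | (_, _, orb) :: rest => orb.length * prodLow rest

section

variable {α : Type*} [Finite α] {n w mask idc : ℕ} {e : α ≃ Fin n}

/-- The subgroup generated by the words of a tail of the list. -/
def Hs (g : ℕ → Equiv.Perm α) (SG : List (List ℕ)) (t : ℕ) : Subgroup (Equiv.Perm α) :=
  closure {x | ∃ u ∈ SG.drop t, x = wEval g u}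

lemma Hs_anti (g : ℕ → Equiv.Perm α) (SG : List (List ℕ)) {t t' : ℕ} (h : t ≤ t') : Hs g SG t' ≤ Hs g SG t := by
  apply Subgroup.closure_mono
  rintro x ⟨u, hu, rfl⟩
  refine ⟨u, ?_, rfl⟩
  obtain ⟨k, rfl⟩ := Nat.exists_eq_add_of_le h
  rw [← List.drop_drop] at hu
  exact List.mem_of_mem_drop hu

lemma word_mem (g : ℕ → Equiv.Perm α) (SG : List (List ℕ)) (t : ℕ) {o : List ℕ}
    (h : ∀ i ∈ o, t ≤ i ∧ i < SG.length) : wEval g (o.flatMap fun i => SG.getD i []) ∈ Hs g SG t := by
  induction o with
  | nil => exact Subgroup.one_mem _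
  | cons a o ih =>
    rw [List.flatMap_cons, wEval_append]
    refine Subgroup.mul_mem _ ?_ (ih fun i hi => h i (by simp [hi]))
    obtain ⟨h1, h2⟩ := h a (by simp)
    refine subset_closure ⟨SG.getD a [], ?_, rfl⟩
    rw [List.getD_eq_getElem _ _ h2]
    have h3 : a - t < (SG.drop t).length := by
      rw [List.length_drop]
      omega
    have h4 := List.getElem_mem h3
    rw [List.getElem_drop] at h4
    have e1 : t + (a - t) = a := by omega
    simpa only [e1] using h4

/-- One step of the chain of stabilisers. -/
theorem step_le {H K : Subgroup (Equiv.Perm α)} (hKH : K ≤ H) {a : α} (hfix : ∀ k ∈ K, k a = a)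
    (l : List (Equiv.Perm α)) (hl : ∀ h ∈ l, h ∈ H) (hnd : (l.map fun h => h a).Nodup) :
    l.length * Nat.card K ≤ Nat.card H := by
  let φ : Fin l.length × K → H := fun q => ⟨l[q.1] * q.2, mul_mem (hl _ (List.getElem_mem _)) (hKH q.2.2)⟩
  have hφ : Function.Injective φ := by
    rintro ⟨i, k⟩ ⟨j, k'⟩ h
    have h1 : l[i] * (k : Equiv.Perm α) = l[j] * (k' : Equiv.Perm α) := congrArg Subtype.val h
    have h2 : l[i] a = l[j] a := by
      have h3 := congrArg (fun f : Equiv.Perm α => f a) h1
      simp only [Equiv.Perm.mul_apply, hfix _ k.2, hfix _ k'.2] at h3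
      exact h3
    have h4 : i = j := by
      have h5 := List.nodup_iff_injective_get.1 hnd
      have hi : i.1 < (l.map fun h => h a).length := by simp
      have hj : j.1 < (l.map fun h => h a).length := by simp
      have h6 := @h5 ⟨i.1, hi⟩ ⟨j.1, hj⟩ (by simpa using h2)
      exact Fin.ext (Fin.mk.inj_iff.1 h6)
    subst h4
    have h7 : (k : Equiv.Perm α) = k' := mul_left_cancel h1
    rw [Subtype.ext h7]
  have := Nat.card_le_card_of_injective φ hφ
  simpa [Nat.card_prod] using this

/-- The lower bound of the order. -/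
theorem low_spec {L : ℕ → ℕ} {g : ℕ → Equiv.Perm α} (hL : ∀ l, Rep w mask e (L l) (g l)) (SG : List (List ℕ)) :
    ∀ (levels : List (ℕ × ℕ × List (List ℕ))) (t : ℕ), chkLow n w mask L SG t levels = true →
      prodLow levels ≤ Nat.card (Hs g SG t) := by
  intro levels
  induction levels with
  | nil =>
    intro t _
    exact Nat.card_pos
  | cons q rest ih =>
    intro t h
    obtain ⟨b, t', orb⟩ := q
    simp only [chkLow, Bool.and_eq_true, List.all_eq_true] at h
    obtain ⟨⟨⟨⟨⟨hb, htt⟩, hfix⟩, horb⟩, hinc⟩, hrest⟩ := h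
    have hb' : b < n := Nat.le_of_ble_eq_true hb
    have htt' : t ≤ t' := Nat.le_of_ble_eq_true htt
    let a : α := e.symm ⟨b, hb'⟩
    have hea : ((e a : Fin n) : ℕ) = b := by simp [a]
    have hfixK : ∀ k ∈ Hs g SG t', k a = a := by
      have hle : Hs g SG t' ≤ MulAction.stabilizer (Equiv.Perm α) a := by
        rw [Hs, closure_le]
        rintro _ ⟨u, hu, rfl⟩
        have h1 := Nat.eq_of_beq_eq_true (hfix u hu)
        have h2 := app_word hL u a
        rw [hea, h1] at h2
        have h4 : ((e ((wEval g u) a) : Fin n) : ℕ) = b := h2.symm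
        show (wEval g u) a = a
        apply e.injective
        apply Fin.ext
        rw [h4, hea]
      intro k hk
      exact hle hk
    let l : List (Equiv.Perm α) := orb.map fun o => wEval g (o.flatMap fun i => SG.getD i [])
    have hl : ∀ h ∈ l, h ∈ Hs g SG t := by
      intro h hh
      obtain ⟨o, ho, rfl⟩ := List.mem_map.1 hh
      refine word_mem g SG t fun i hi => ?_
      have h1 := horb o ho i hi
      exact ⟨Nat.le_of_ble_eq_true h1.1, Nat.le_of_ble_eq_true h1.2⟩
    have hnd : (l.map fun h => h a).Nodup := by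
      have h1 : (orb.map fun o => applyW w mask L (o.flatMap fun i => SG.getD i []) b).Nodup :=
        (incB_pairwise hinc).imp (fun h => h.ne)
      have h2 : (orb.map fun o => applyW w mask L (o.flatMap fun i => SG.getD i []) b) =
          (l.map fun h => h a).map fun x => ((e x : Fin n) : ℕ) := by
        simp only [l, List.map_map]
        apply List.map_congr_left
        intro o _
        have h3 := app_word hL (o.flatMap fun i => SG.getD i []) a
        rw [hea] at h3
        simp only [Function.comp]
        exact h3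
      rw [h2] at h1
      exact List.Nodup.of_map _ h1
    have h1 := step_le (Hs_anti g SG htt') hfixK l hl hnd
    have h2 := ih t' hrest
    have h3 : l.length = orb.length := by simp [l]
    rw [h3] at h1
    calc prodLow ((b, t', orb) :: rest) = orb.length * prodLow rest := rfl
      _ ≤ orb.length * Nat.card (Hs g SG t') := Nat.mul_le_mul_left _ h2
      _ ≤ _ := h1

end

/-- The group-level check without the list of the elements. -/
noncomputable def chkQ (n w mask idc : ℕ) (c : Cert) (codes conj : List ℕ) : Bool :=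
  let L : ℕ → ℕ := fun l => codes.getD l idc
  let W := wCode n w mask idc L
  ifB (Nat.beq mask (2 ^ w - 1)) <|
  ifB ((List.range n).all fun i => Nat.beq (app w mask idc i) i) <|
  ifB ((List.range c.n).all fun j =>
    (Nat.beq (W (List.replicate c.p j)) (W (c.rule j j))) &&
    (List.range j).all fun i => Nat.beq (Cfsg.Agent.Lib.PermComp.Core.comp n w mask (L j) (L i)) (W (i :: c.rule j i))) <|
  ((List.range c.items.length).all fun f =>
    (Nat.beq (c.items.getD f ([], [])).1.length (c.items.getD f ([], [])).2.length) &&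
    (Nat.ble (c.items.length) conj.length) &&
    (List.range (c.items.getD f ([], [])).1.length).all fun l =>
      Nat.beq (Cfsg.Agent.Lib.PermComp.Core.comp n w mask (W (c.lett f l)) (conj.getD f idc))
        (Cfsg.Agent.Lib.PermComp.Core.comp n w mask (conj.getD f idc) (W (c.letb f l))))

/-- The check of the chain of stabilisers. -/
def chkLowAll (n w mask idc : ℕ) (c : Cert) (codes : List ℕ) (SG : List (List ℕ))
    (levels : List (ℕ × ℕ × List (List ℕ))) : Bool :=
  Nat.beq (prodLow levels) (c.p ^ c.n) && (SG.all fun u => u.all fun x => Nat.blt x c.n) &&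
    chkLow n w mask (fun l => codes.getD l idc) SG 0 levels

variable {α : Type*} [Finite α] {n w mask idc : ℕ} {e : α ≃ Fin n}
variable {Γ : Type*} [Group Γ]

/-- The main theorem of this file. -/
theorem card_ker_dvd (G : Subgroup (Equiv.Perm α)) (c : Cert) (hc : c.check = true)
    (codes conj : List ℕ) (SG : List (List ℕ)) (levels : List (ℕ × ℕ × List (List ℕ)))
    (hch : chkQ n w mask idc c codes conj = true) (hlow : chkLowAll n w mask idc c codes SG levels = true)
    (hmem1 : ∀ x ∈ codes, ∃ g ∈ G, Rep w mask e x g) (hmem2 : ∀ x ∈ conj, ∃ g ∈ G, Rep w mask e x g)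
    {p : ℕ} [Fact p.Prime] (hpc : c.p = p) [Finite Γ] {σ : Γ →* G} (hσ : IsStemExtension σ) {m : ℕ}
    (hG : Nat.card G = c.p ^ c.n * m) (hm : ¬ p ∣ m) (P : Sylow p Γ) :
    Nat.card (σ.subgroupMap (P : Subgroup Γ)).ker ∣ c.zm := by
  classical
  have hfinG : Finite G := Finite.of_surjective σ hσ.1
  simp only [chkQ, ifB_eq_true, Bool.and_eq_true, List.all_eq_true] at hch
  obtain ⟨hm0, hid0, hr, hfu⟩ := hch
  have hm' : mask = 2 ^ w - 1 := Nat.eq_of_beq_eq_true hm0
  have hid : ∀ i < n, app w mask idc i = i := fun i hi =>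
    Nat.eq_of_beq_eq_true (hid0 i (List.mem_range.2 hi))
  have hI : ∃ g ∈ G, Rep w mask e idc g := ⟨1, G.one_mem, rep_one hid⟩
  -- the letters
  set L : ℕ → ℕ := fun l => codes.getD l idc with hL
  have hLm : ∀ l, ∃ g ∈ G, Rep w mask e (L l) g := by
    intro l
    by_cases hl : l < codes.length
    · rw [hL]
      simp only
      rw [List.getD_eq_getElem _ _ hl]
      exact hmem1 _ (List.getElem_mem hl)
    · rw [hL]
      simp only
      rw [List.getD_eq_default _ _ (by omega)]
      exact hI
  choose gL hgL hLr using hLm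
  set C : ℕ → ℕ := fun f => conj.getD f idc with hC
  have hCm : ∀ f, ∃ g ∈ G, Rep w mask e (C f) g := by
    intro f
    by_cases hl : f < conj.length
    · rw [hC]
      simp only
      rw [List.getD_eq_getElem _ _ hl]
      exact hmem2 _ (List.getElem_mem hl)
    · rw [hC]
      simp only
      rw [List.getD_eq_default _ _ (by omega)]
      exact hI
  choose gC hgC hCr using hCm
  let e' : ℕ → G := fun l => ⟨gL l, hgL l⟩
  let y : ℕ → G := fun f => ⟨gC f, hgC f⟩
  set W := wCode n w mask idc L with hW
  have hcoe : ∀ u, ((wEval e' u : G) : Equiv.Perm α) = wEval gL u := by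
    intro u
    have := map_wEval G.subtype e' u
    exact this
  have hwr : ∀ u, Rep w mask e (W u) (wEval gL u) := fun u => wCode_rep hm' hid hLr u
  -- rule identities
  have he1 : ∀ j i, i < j → j < c.n → e' j * e' i = wEval e' (i :: c.rule j i) := by
    intro j i hij hj
    have h1 := (hr j (List.mem_range.2 hj)).2 i (List.mem_range.2 hij)
    have h2 := Nat.eq_of_beq_eq_true h1
    apply Subtype.ext
    rw [hcoe, Subgroup.coe_mul]
    have h3 := (hLr j).comp hm' (hLr i)
    rw [h2] at h3
    exact h3.unique (hwr _)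
  have he2 : ∀ i, i < c.n → e' i ^ c.p = wEval e' (c.rule i i) := by
    intro i hi
    have h1 := (hr i (List.mem_range.2 hi)).1
    have h2 := Nat.eq_of_beq_eq_true h1
    rw [← wEval_replicate]
    apply Subtype.ext
    rw [hcoe, hcoe]
    have h3 := hwr (List.replicate c.p i)
    rw [h2] at h3
    exact h3.unique (hwr _)
  have hf : ∀ f l, (y f)⁻¹ * wEval e' (c.lett f l) * y f = wEval e' (c.letb f l) := by
    intro f l
    by_cases hff : f < c.items.length
    · obtain ⟨⟨h1, h2⟩, h3⟩ := hfu f (List.mem_range.2 hff)
      have h1' := Nat.eq_of_beq_eq_true h1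
      by_cases hl : l < (c.items.getD f ([], [])).1.length
      · have h4 := Nat.eq_of_beq_eq_true (h3 l (List.mem_range.2 hl))
        rw [mul_assoc, inv_mul_eq_iff_eq_mul]
        apply Subtype.ext
        rw [Subgroup.coe_mul, Subgroup.coe_mul, hcoe, hcoe]
        have h5 := (hwr (c.lett f l)).comp hm' (hCr f)
        have h6 := (hCr f).comp hm' (hwr (c.letb f l))
        have h7 : Cfsg.Agent.Lib.PermComp.Core.comp n w mask (W (c.lett f l)) (C f) =
            Cfsg.Agent.Lib.PermComp.Core.comp n w mask (C f) (W (c.letb f l)) := h4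
        rw [h7] at h5
        exact h5.unique h6
      · have e1 : c.lett f l = [] := by
          rw [Cert.lett, List.getD_eq_default _ _ (by omega)]
        have e2 : c.letb f l = [] := by
          rw [Cert.letb, List.getD_eq_default _ _ (by omega)]
        rw [e1, e2]
        simp
    · have e1 : c.lett f l = [] := by
        rw [Cert.lett, List.getD_eq_default c.items _ (by omega)]
        simp
      have e2 : c.letb f l = [] := by
        rw [Cert.letb, List.getD_eq_default c.items _ (by omega)]
        simp
      rw [e1, e2]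
      simp
  -- the size of the subgroup
  have hcard : c.p ^ c.n ≤ Nat.card (chain e' c.n ⊥ 0) := by
    simp only [chkLowAll, Bool.and_eq_true, List.all_eq_true] at hlow
    obtain ⟨⟨hl1, hl2⟩, hl3⟩ := hlow
    have hl1' := Nat.eq_of_beq_eq_true hl1
    rw [← hl1']
    have h1 := low_spec hLr SG levels 0 hl3
    have h2 : Hs gL SG 0 ≤ (chain e' c.n ⊥ 0).map G.subtype := by
      rw [Hs, closure_le]
      rintro _ ⟨u, hu, rfl⟩
      refine ⟨wEval e' u, ?_, hcoe u⟩
      refine wEval_mem_chain e' c.n ⊥ fun x hx => ⟨Nat.zero_le _, ?_⟩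
      have h3 : u ∈ SG := by simpa using hu
      exact Nat.le_of_ble_eq_true (hl2 u h3 x hx)
    have h3 : Nat.card (Hs gL SG 0) ≤ Nat.card ((chain e' c.n ⊥ 0).map G.subtype) :=
      Nat.card_le_card_of_injective (Subgroup.inclusion h2) (Subgroup.inclusion_injective h2)
    rw [Subgroup.card_map_of_injective G.subtype_injective] at h3
    exact h1.trans h3
  exact card_ker_sylow_dvd c hc hpc hσ e' y he1 he2 hf hcard hG hm P

end Cfsg.Agent.Lib.Schur.SpStem.PcLow
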